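/-
From a group of type `M(22)` to the explicit model.
-/
import Mathlib
import Cfsg.Agent.Lib.Fischer.M22.ExplicitFact
import Cfsg.Agent.Lib.Fischer.M22.Final

set_option autoImplicit false

namespace Cfsg.Agent.Lib.Fischer.M22.Explicit

open Cfsg

/-- A group of type `M(22)` is isomorphic to the explicit model, with `D` matching `D0`. -/
theorem exists_iso {G : Type*} [Group G] [Finite G] {D : Set G} (hD : IsThreeTranspositionGroup D)
    (hprim : IsPrimitiveUnderConj D) (ht : IsOfTypeM22 G D) : ∃ e : G ≃* G0, ∀ a, a ∈ D ↔ e a ∈ D0 := by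
  obtain ⟨d, -, e, -, he⟩ := Cfsg.Agent.Lib.Fischer.M22.Final.exists_iso_G0 hD hprim ht
  refine ⟨e, fun a => ?_⟩
  rw [← he]
  constructor
  · intro h
    exact ⟨a, h, rfl⟩
  · rintro ⟨b, hb, k⟩
    have : b = a := e.injective k
    rwa [← this]

end Cfsg.Agent.Lib.Fischer.M22.Explicit
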