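/-
The laws of the action `tp` on points, deduced from the images `T p` of the transvections in `PSU₆(2)`.
-/
import Mathlib
import Cfsg.Agent.Lib.Fischer.M22.PSU2

set_option autoImplicit false

namespace Cfsg.Agent.Lib.Fischer.M22.LAlg

open Cfsg.Agent.Lib.Fischer.M22.Model Cfsg.Agent.Lib.Fischer.M22.PSU1 Cfsg.Agent.Lib.Fischer.M22.PSU2

variable {p q s : ℕ}

theorem T_sq (hp : isPt p = true) : T p * T p = 1 := by
  rw [T_eq hp, ← map_mul, tauS_sq, map_one]

theorem T_tp (hp : isPt p = true) (hq : isPt q = true) : T (tp p q) = T p * T q * T p := (T_conj hp hq).2.symm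

theorem tp_isPt (hp : isPt p = true) (hq : isPt q = true) : isPt (tp p q) = true := (T_conj hp hq).1

theorem tp_tp (hp : isPt p = true) (hq : isPt q = true) : tp p (tp p q) = q := by
  apply T_inj (tp_isPt hp (tp_isPt hp hq)) hq
  rw [T_tp hp (tp_isPt hp hq), T_tp hp hq]
  calc T p * (T p * T q * T p) * T p = (T p * T p) * T q * (T p * T p) := by group
    _ = T q := by rw [T_sq hp]; group

theorem tp_self (hp : isPt p = true) : tp p p = p := by
  apply T_inj (tp_isPt hp hp) hp
  rw [T_tp hp hp, T_sq hp, one_mul]

theorem tp_conj (hs : isPt s = true) (hp : isPt p = true) (hq : isPt q = true) :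
    tp (tp s p) q = tp s (tp p (tp s q)) := by
  have h1 := tp_isPt hs hp
  have h2 := tp_isPt hs hq
  have h3 := tp_isPt hp h2
  apply T_inj (tp_isPt h1 hq) (tp_isPt hs h3)
  rw [T_tp h1 hq, T_tp hs hp, T_tp hs h3, T_tp hp h2, T_tp hs hq]
  calc T s * T p * T s * T q * (T s * T p * T s) = T s * (T p * (T s * T q * T s) * T p) * T s := by group

theorem perp_tp (hs : isPt s = true) (hp : isPt p = true) (hq : isPt q = true) :
    perp (tp s p) (tp s q) = true ↔ perp p q = true := by
  rw [← T_comm (tp_isPt hs hp) (tp_isPt hs hq), ← T_comm hp hq, T_tp hs hp, T_tp hs hq]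
  have hss := T_sq hs
  constructor
  · intro k
    have e := congrArg (fun x => T s * x * T s) k
    have hs' : ∀ x : PS, T s * (T s * x) = x := fun x => by rw [← mul_assoc, hss, one_mul]
    have hs'' : ∀ x : PS, x * T s * T s = x := fun x => by rw [mul_assoc, hss, mul_one]
    have c1 : ∀ a b : PS, T s * ((T s * a * T s) * (T s * b * T s)) * T s = a * b := by
      intro a b
      calc T s * ((T s * a * T s) * (T s * b * T s)) * T s = (T s * T s) * a * (T s * T s) * b * (T s * T s) := by group
        _ = a * b := by rw [hss]; group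
    simpa only [c1] using e
  · intro k
    have c1 : ∀ a b : PS, (T s * a * T s) * (T s * b * T s) = T s * (a * b) * T s := by
      intro a b
      calc (T s * a * T s) * (T s * b * T s) = T s * a * (T s * T s) * b * T s := by group
        _ = T s * (a * b) * T s := by rw [hss]; group
    rw [c1, c1, k]

theorem tp_of_perp (hp : isPt p = true) (hq : isPt q = true) (h : perp p q = true) : tp p q = q := by
  apply T_inj (tp_isPt hp hq) hq
  rw [T_tp hp hq, (T_comm hp hq).2 h, mul_assoc, T_sq hp, mul_one]

theorem perp_symm (hp : isPt p = true) (hq : isPt q = true) : perp p q = true ↔ perp q p = true := by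
  rw [← T_comm hp hq, ← T_comm hq hp]
  exact ⟨fun k => k.symm, fun k => k.symm⟩

theorem tp_ne_of_not_perp (hp : isPt p = true) (hq : isPt q = true) (h : ¬ perp p q = true) : tp p q ≠ q := by
  intro k
  apply h
  rw [← T_comm hp hq]
  have := T_tp hp hq
  rw [k] at this
  have e : T p * T q = (T p * T q * T p) * T p := by rw [mul_assoc (T p * T q), T_sq hp, mul_one]
  rw [e, ← this]

end Cfsg.Agent.Lib.Fischer.M22.LAlg
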