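/-
The concrete model of the family of 1408 sets of points, and the fill property of its graph.
-/
import Mathlib
import Cfsg.Agent.Lib.Fischer.M22.Compare
import Cfsg.Agent.Lib.Fischer.M22.LAlg
import Cfsg.Agent.Lib.Fischer.M22.FillLocal
import Cfsg.Agent.Lib.Fischer.M22.LCheck
import Cfsg.Agent.Lib.Fischer.M22.LImg

set_option autoImplicit false

namespace Cfsg.Agent.Lib.Fischer.M22.LM22

open Cfsg.Agent.Lib.Fischer.M22.Model Cfsg.Agent.Lib.Fischer.M22.LFun Cfsg.Agent.Lib.Fischer.M22.LCheck
open Cfsg.Agent.Lib.Fischer.M22.LData Cfsg.Agent.Lib.Fischer.M22.Dpll Cfsg.Agent.Lib.Fischer.M22.Fast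
open Cfsg.Agent.Lib.Fischer.M22.Tables Cfsg.Agent.Lib.Fischer.M22.LAlg Cfsg.Agent.Lib.Fischer.M22.Cover
open Cfsg.Agent.Lib.Fischer.M22.FillLocal Cfsg.Agent.Lib.Fischer.M22.DoubleCover

/-- Membership in a set of the family. -/
def memL (q i : ℕ) : Prop := bit (M1 i) q = true

theorem bit_lt_of_shift {S n q : ℕ} (h : Nat.beq (Nat.shiftRight S n) 0 = true) (hq : bit S q = true) : q < n := by
  by_contra hn
  have h0 : S >>> n = 0 := Nat.eq_of_beq_eq_true h
  rw [bit_eq_testBit] at hq
  have h1 : (S >>> n).testBit (q - n) = S.testBit q := by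
    rw [Nat.testBit_shiftRight]
    congr 1
    omega
  rw [h0, Nat.zero_testBit] at h1
  rw [← h1] at hq
  exact absurd hq (by simp)

theorem isPt_of_bit {q : ℕ} (h : bit PTS q = true) : isPt q = true := by
  rw [← ptB_eq]
  unfold ptB
  rw [h, Bool.and_true]
  exact (blt_iff _ _).2 (bit_lt_of_shift c_pts_lt h)

theorem bit_of_isPt {q : ℕ} (h : isPt q = true) : bit PTS q = true := by
  rw [← ptB_eq] at h
  unfold ptB at h
  rw [Bool.and_eq_true] at h
  exact h.2

theorem memL_isPt {q i : ℕ} (hi : i < 1408) (h : memL q i) : isPt q = true := by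
  apply isPt_of_bit
  have h1 : M1 i &&& PTS = M1 i := Nat.eq_of_beq_eq_true (allB_spec c_sub i hi)
  have h2 : (M1 i).testBit q = true := by rw [← bit_eq_testBit]; exact h
  rw [← h1, Nat.testBit_and, Bool.and_eq_true] at h2
  rw [bit_eq_testBit]
  exact h2.2

theorem elem_of_mem {q i : ℕ} (hi : i < 1408) (h : memL q i) : ∃ m, m < 126 ∧ q = elem i m := by
  have h1 : M1 i = orF i 126 := Nat.eq_of_beq_eq_true (allB_spec c_or i hi)
  unfold memL at h
  rw [h1] at h
  exact orF_spec i 126 q h

theorem tauL_eq {k q : ℕ} (hk : k < 7) (hq : isPt q = true) : tauL k q = tp (genF k) q := by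
  have h1 := allB_spec (c_tau k hk) q (isPt_lt hq)
  simp only [Bool.or_eq_true, Bool.not_eq_true'] at h1
  rcases h1 with h1 | h1
  · rw [bit_of_isPt hq] at h1
    exact absurd h1 (by simp)
  · rw [Nat.eq_of_beq_eq_true h1]
    exact tpF_eq (isPt_lt (c_gen k hk)) (isPt_lt hq)

theorem sg_lt {k i : ℕ} (hk : k < 7) (hi : i < 1408) : sg k i < 1408 := by
  have h1 := allB_spec (c_inv k hk) i hi
  simp only [Bool.and_eq_true] at h1
  exact (blt_iff _ _).1 h1.1

theorem sg_sg {k i : ℕ} (hk : k < 7) (hi : i < 1408) : sg k (sg k i) = i := by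
  have h1 := allB_spec (c_inv k hk) i hi
  simp only [Bool.and_eq_true] at h1
  exact Nat.eq_of_beq_eq_true h1.2

theorem img_gen {k i q : ℕ} (hk : k < 7) (hi : i < 1408) (h : memL q i) : memL (tp (genF k) q) (sg k i) := by
  obtain ⟨m, hm, rfl⟩ := elem_of_mem hi h
  have h1 := allB_spec (allB_spec (c_img k hk) i hi) m hm
  rw [tauL_eq hk (memL_isPt hi h)] at h1
  exact h1

theorem act_gen {k i q : ℕ} (hk : k < 7) (hi : i < 1408) (hq : isPt q = true) :
    memL q (sg k i) ↔ memL (tp (genF k) q) i := by
  have hs := c_gen k hk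
  constructor
  · intro h
    have := img_gen hk (sg_lt hk hi) h
    rwa [sg_sg hk hi] at this
  · intro h
    have := img_gen hk hi h
    rwa [tp_tp hs hq] at this

/-- Induction on points. -/
theorem pt_ind (P : ℕ → Prop) (h5 : P 5) (hstep : ∀ k, k < 7 → ∀ p, isPt p = true → P p → P (tp (genF k) p)) :
    ∀ p, isPt p = true → P p := by
  have key : ∀ n p, eRkP (eP PTr p) = n → isPt p = true → P p := by
    intro n
    induction n using Nat.strong_induction_on with
    | _ n ih =>
      intro p hn hp
      have h1 := allB_spec c_ptree p (isPt_lt hp)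
      simp only [Bool.or_eq_true, Bool.not_eq_true'] at h1
      rcases h1 with h1 | h1
      · rw [bit_of_isPt hp] at h1
        exact absurd h1 (by simp)
      · unfold ptreeChk at h1
        simp only [Bool.or_eq_true, Bool.and_eq_true] at h1
        rcases h1 with h1 | ⟨h2, h3, h4, h5'⟩
        · rw [Nat.eq_of_beq_eq_true h1]
          exact h5
        · have hk : eK (eP PTr p) < 7 := (blt_iff _ _).1 h2
          have hpar := isPt_of_bit h3
          have hlt := (blt_iff _ _).1 h4
          have e := Nat.eq_of_beq_eq_true h5'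
          rw [tauL_eq hk hpar] at e
          rw [← e]
          exact hstep _ hk _ hpar (ih _ (by rw [← hn]; exact hlt) _ rfl hpar)
  exact fun p hp => key _ p rfl hp

/-- The family is closed under the action of all points. -/
theorem exists_act {p : ℕ} (hp : isPt p = true) :
    ∀ i, i < 1408 → ∃ j, j < 1408 ∧ ∀ q, isPt q = true → (memL q j ↔ memL (tp p q) i) := by
  refine pt_ind (fun p => ∀ i, i < 1408 → ∃ j, j < 1408 ∧ ∀ q, isPt q = true → (memL q j ↔ memL (tp p q) i)) ?_ ?_ p hp
  · intro i hi
    exact ⟨sg 6 i, sg_lt (by omega) hi, fun q hq => act_gen (by omega) hi hq⟩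
  · intro k hk p' hp' ih i hi
    have hs := c_gen k hk
    obtain ⟨j, hj, hjq⟩ := ih (sg k i) (sg_lt hk hi)
    refine ⟨sg k j, sg_lt hk hj, fun q hq => ?_⟩
    rw [act_gen hk hj hq, hjq _ (tp_isPt hs hq), act_gen hk hi (tp_isPt hp' (tp_isPt hs hq)), tp_conj hs hp' hq]

open Classical in
/-- The action of points on the index set. -/
noncomputable def actF (p : ℕ) (i : Fin 1408) : Fin 1408 :=
  if hp : isPt p = true then ⟨(exists_act hp i.1 i.2).choose, (exists_act hp i.1 i.2).choose_spec.1⟩ else i

theorem mem_actF {p q : ℕ} (hp : isPt p = true) (hq : isPt q = true) (i : Fin 1408) :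
    memL q (actF p i).1 ↔ memL (tp p q) i.1 := by
  unfold actF
  rw [dif_pos hp]
  exact (exists_act hp i.1 i.2).choose_spec.2 q hq

theorem M1_strict {i j : ℕ} (hij : i < j) (hj : j < 1408) : M1 i < M1 j := by
  induction j with
  | zero => omega
  | succ j ih =>
    have h1 : M1 j < M1 (j + 1) := (blt_iff _ _).1 (allB_spec c_mono j (by omega))
    rcases Nat.lt_succ_iff_lt_or_eq.1 hij with h2 | rfl
    · exact (ih h2 (by omega)).trans h1
    · exact h1

theorem ext_L {i j : Fin 1408} (h : ∀ q, memL q i.1 ↔ memL q j.1) : i = j := by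
  have h1 : M1 i.1 = M1 j.1 := by
    apply Nat.eq_of_testBit_eq
    intro q
    have := h q
    unfold memL at this
    rw [bit_eq_testBit, bit_eq_testBit] at this
    cases h2 : (M1 i.1).testBit q <;> cases h3 : (M1 j.1).testBit q <;> simp_all
  apply Fin.ext
  rcases Nat.lt_trichotomy i.1 j.1 with h2 | h2 | h2
  · exact absurd h1 (M1_strict h2 j.2).ne
  · exact h2
  · exact absurd h1.symm (M1_strict h2 i.2).ne

theorem actF_gen {k : ℕ} (hk : k < 7) (i : Fin 1408) : (actF (genF k) i).1 = sg k i.1 := by
  have := @ext_L (actF (genF k) i) ⟨sg k i.1, sg_lt hk i.2⟩ (fun q => by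
    by_cases hq : isPt q = true
    · rw [mem_actF (c_gen k hk) hq, act_gen hk i.2 hq]
    · constructor
      · intro h
        exact absurd (memL_isPt (Fin.is_lt _) h) hq
      · intro h
        exact absurd (memL_isPt (sg_lt hk i.2) h) hq)
  rw [this]

theorem actF_actF {p : ℕ} (hp : isPt p = true) (i : Fin 1408) : actF p (actF p i) = i := by
  apply ext_L
  intro q
  by_cases hq : isPt q = true
  · rw [mem_actF hp hq, mem_actF hp (tp_isPt hp hq), tp_tp hp hq]
  · constructor
    · intro h
      exact absurd (memL_isPt (Fin.is_lt _) h) hq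
    · intro h
      exact absurd (memL_isPt (Fin.is_lt _) h) hq

/-- The base index. -/
def x₀F : Fin 1408 := ⟨x0, by decide⟩

/-- Induction on indices. -/
theorem idx_ind (P : Fin 1408 → Prop) (h0 : P x₀F) (hstep : ∀ k, k < 7 → ∀ i, P i → P (actF (genF k) i)) : ∀ i, P i := by
  have key : ∀ n (i : Fin 1408), iRk (eI ITr i.1) = n → P i := by
    intro n
    induction n using Nat.strong_induction_on with
    | _ n ih =>
      intro i hn
      have h1 := allB_spec c_itree i.1 i.2
      unfold itreeChk at h1
      simp only [Bool.or_eq_true, Bool.and_eq_true] at h1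
      rcases h1 with h1 | ⟨h2, h3, h4, h5⟩
      · have : i = x₀F := Fin.ext (Nat.eq_of_beq_eq_true h1)
        rw [this]
        exact h0
      · have hk : eK (eI ITr i.1) < 7 := (blt_iff _ _).1 h2
        have hpar : iPar (eI ITr i.1) < 1408 := (blt_iff _ _).1 h3
        have hlt := (blt_iff _ _).1 h4
        have e := Nat.eq_of_beq_eq_true h5
        have e2 : actF (genF (eK (eI ITr i.1))) ⟨_, hpar⟩ = i := by
          apply Fin.ext
          rw [actF_gen hk]
          exact e
        rw [← e2]
        exact hstep _ hk _ (ih _ (by rw [← hn]; exact hlt) _ rfl)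
  exact fun i => key _ i rfl

theorem ncard_image_tp {s : ℕ} (hs : isPt s = true) (A B : Set ℕ) (hA : ∀ q ∈ A, isPt q = true) (hB : ∀ q ∈ B, isPt q = true)
    (h : ∀ q, isPt q = true → (q ∈ B ↔ tp s q ∈ A)) : B.ncard = A.ncard := by
  have e : B = tp s '' A := by
    ext q
    constructor
    · intro hq
      have hq' := hB q hq
      exact ⟨tp s q, (h q hq').1 hq, tp_tp hs hq'⟩
    · rintro ⟨x, hx, rfl⟩
      have hx' := hA x hx
      rw [h _ (tp_isPt hs hx'), tp_tp hs hx']
      exact hx
  rw [e]
  apply Set.InjOn.ncard_image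
  intro x hx y hy hxy
  have h1 := congrArg (tp s) hxy
  rwa [tp_tp hs (hA x hx), tp_tp hs (hA y hy)] at h1

theorem PL_nodup : PL.Nodup := by
  rw [← pts_eq_PL]
  exact List.Nodup.filter _ List.nodup_range

theorem PL_length : PL.length = 693 := by
  rw [← pts_eq_PL]
  exact pts_length

theorem ncard_pts : {q : ℕ | isPt q = true}.ncard = 693 := by
  have e : {q : ℕ | isPt q = true} = ↑PL.toFinset := by
    ext q
    simp [mem_PL]
  rw [e, Set.ncard_coe_finset, List.toFinset_card_of_nodup PL_nodup, PL_length]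

theorem ncard_perp : ∀ p, isPt p = true → {q : ℕ | isPt q = true ∧ q ≠ p ∧ perp p q = true}.ncard = 180 := by
  apply pt_ind
  · have e : {q : ℕ | isPt q = true ∧ q ≠ 5 ∧ perp 5 q = true} =
        ↑(PL.filter (fun q => and (not (Nat.beq q 5)) (perp 5 q))).toFinset := by
      ext q
      simp only [Set.mem_setOf_eq, Finset.mem_coe, List.mem_toFinset, List.mem_filter, mem_PL, Bool.and_eq_true,
        Bool.not_eq_true']
      constructor
      · rintro ⟨h1, h2, h3⟩
        refine ⟨h1, ?_, h3⟩
        cases h4 : Nat.beq q 5 with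
        | false => rfl
        | true => exact absurd (Nat.eq_of_beq_eq_true h4) h2
      · rintro ⟨h1, h2, h3⟩
        refine ⟨h1, ?_, h3⟩
        rintro rfl
        rw [show Nat.beq 5 5 = true from rfl] at h2
        exact absurd h2 (by simp)
    rw [e, Set.ncard_coe_finset, List.toFinset_card_of_nodup (PL_nodup.filter _), c_card_perp]
  · intro k hk p hp ih
    have hs := c_gen k hk
    rw [← ih]
    apply ncard_image_tp hs
    · exact fun q hq => hq.1
    · exact fun q hq => hq.1
    · intro q hq
      have h1 := perp_tp hs hp (tp_isPt hs hq)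
      rw [tp_tp hs hq] at h1
      constructor
      · rintro ⟨-, h2, h3⟩
        refine ⟨tp_isPt hs hq, ?_, h1.1 h3⟩
        intro h4
        apply h2
        rw [← h4, tp_tp hs hq]
      · rintro ⟨-, h2, h3⟩
        refine ⟨hq, ?_, h1.2 h3⟩
        rintro rfl
        exact h2 (tp_tp hs hp)

theorem ncard_mem : ∀ i : Fin 1408, {q : ℕ | memL q i.1}.ncard = 126 := by
  apply idx_ind
  · have e : {q : ℕ | memL q x₀F.1} = ↑(PL.filter (fun q => bit (M1 x0) q)).toFinset := by
      ext q
      simp only [Set.mem_setOf_eq, Finset.mem_coe, List.mem_toFinset, List.mem_filter, mem_PL]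
      constructor
      · intro h
        exact ⟨memL_isPt x₀F.2 h, h⟩
      · intro h
        exact h.2
    rw [e, Set.ncard_coe_finset, List.toFinset_card_of_nodup (PL_nodup.filter _), c_card_x0]
  · intro k hk i ih
    have hs := c_gen k hk
    rw [← ih]
    apply ncard_image_tp hs
    · exact fun q hq => memL_isPt i.2 hq
    · exact fun q hq => memL_isPt (Fin.is_lt _) hq
    · intro q hq
      exact mem_actF hs hq i

/-- The model. -/
noncomputable def M22 : LModel ℕ (Fin 1408) where
  isPt q := isPt q = true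
  perp u v := perp u v = true
  tp := tp
  mem q i := memL q i.1
  act := actF
  mem_isPt q i h := memL_isPt i.2 h
  tp_isPt p q hp hq := tp_isPt hp hq
  tp_tp p q hp hq := tp_tp hp hq
  mem_act p q i hp hq := mem_actF hp hq i
  ext i j h := ext_L h
  orbit := by
    have hsym : ∀ i : Fin 1408, Relation.ReflTransGen (fun i j => ∃ p, isPt p = true ∧ actF p i = j) x₀F i ∧
        Relation.ReflTransGen (fun i j => ∃ p, isPt p = true ∧ actF p i = j) i x₀F := by
      apply idx_ind
      · exact ⟨Relation.ReflTransGen.refl, Relation.ReflTransGen.refl⟩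
      · intro k hk i ih
        have hs := c_gen k hk
        refine ⟨ih.1.tail ⟨_, hs, rfl⟩, Relation.ReflTransGen.head ⟨_, hs, actF_actF hs i⟩ ih.2⟩
    exact fun i j => (hsym i).2.trans (hsym j).1
  N := 693
  n := 180
  m := 126
  card_pts := ncard_pts
  card_perp := ncard_perp
  card_mem := ncard_mem
  m_pos := by norm_num
  card_ι := by simp
  finite_ι := inferInstance
  hcount := by simp

end Cfsg.Agent.Lib.Fischer.M22.LM22
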