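/-
The fill property of the graph on the family of 1408 sets of points.
-/
import Mathlib
import Cfsg.Agent.Lib.Fischer.M22.LM22

set_option autoImplicit false

namespace Cfsg.Agent.Lib.Fischer.M22.LFill

open Cfsg.Agent.Lib.Fischer.M22.Model Cfsg.Agent.Lib.Fischer.M22.LFun Cfsg.Agent.Lib.Fischer.M22.LCheck
open Cfsg.Agent.Lib.Fischer.M22.LData Cfsg.Agent.Lib.Fischer.M22.Dpll Cfsg.Agent.Lib.Fischer.M22.Fast
open Cfsg.Agent.Lib.Fischer.M22.Tables Cfsg.Agent.Lib.Fischer.M22.LAlg Cfsg.Agent.Lib.Fischer.M22.Cover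
open Cfsg.Agent.Lib.Fischer.M22.FillLocal Cfsg.Agent.Lib.Fischer.M22.DoubleCover Cfsg.Agent.Lib.Fischer.M22.LM22

theorem actF_tp {s u : ℕ} (hs : isPt s = true) (hu : isPt u = true) (i : Fin 1408) :
    actF (tp s u) (actF s i) = actF s (actF u i) := by
  apply ext_L
  intro q
  by_cases hq : isPt q = true
  · have h1 := tp_isPt hs hu
    rw [mem_actF h1 hq, mem_actF hs (tp_isPt h1 hq), mem_actF hs hq, mem_actF hu (tp_isPt hs hq), tp_conj hs hu hq,
      tp_tp hs (tp_isPt hu (tp_isPt hs hq))]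
  · constructor
    · intro h
      exact absurd (memL_isPt (Fin.is_lt _) h) hq
    · intro h
      exact absurd (memL_isPt (Fin.is_lt _) h) hq

theorem adj_iff {i j : Fin 1408} : M22.Adj i j ↔ ∃ u, isPt u = true ∧ ¬ memL u i.1 ∧ actF u i = j := Iff.rfl

theorem adj_symm {i j : Fin 1408} (h : M22.Adj i j) : M22.Adj j i := by
  rw [adj_iff] at h ⊢
  obtain ⟨u, hu, hn, rfl⟩ := h
  refine ⟨u, hu, ?_, actF_actF hu i⟩
  intro k
  have h1 := (mem_actF hu hu i).1 k
  rw [tp_self hu] at h1
  exact hn h1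

theorem adj_act {s : ℕ} (hs : isPt s = true) {i j : Fin 1408} (h : M22.Adj i j) : M22.Adj (actF s i) (actF s j) := by
  rw [adj_iff] at h ⊢
  obtain ⟨u, hu, hn, rfl⟩ := h
  refine ⟨tp s u, tp_isPt hs hu, ?_, actF_tp hs hu i⟩
  intro k
  have h1 := (mem_actF hs (tp_isPt hs hu) i).1 k
  rw [tp_tp hs hu] at h1
  exact hn h1

theorem letter_lt (w : ℕ) : Nat.sub (Nat.land w 7) 1 < 7 := by
  have h1 : w &&& 7 ≤ 7 := Nat.and_le_right
  show (w &&& 7) - 1 < 7
  omega

theorem edge_word (fuel : ℕ) : ∀ (w : ℕ) (a b a' b' : Fin 1408), M22.Adj a b → a'.1 = applyW fuel w a.1 →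
    b'.1 = applyW fuel w b.1 → M22.Adj a' b' := by
  induction fuel with
  | zero =>
    intro w a b a' b' h e1 e2
    rw [applyW_zero] at e1 e2
    rw [Fin.ext e1, Fin.ext e2]
    exact h
  | succ fuel ih =>
    intro w a b a' b' h e1 e2
    rw [applyW_succ] at e1 e2
    cases h0 : Nat.beq w 0 with
    | true =>
      rw [h0] at e1 e2
      rw [Fin.ext e1, Fin.ext e2]
      exact h
    | false =>
      rw [h0] at e1 e2
      have hk := letter_lt w
      refine ih (Nat.shiftRight w 3) _ _ a' b' (adj_act (c_gen _ hk) h) ?_ ?_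
      · rw [actF_gen hk]; exact e1
      · rw [actF_gen hk]; exact e2

theorem applyW_lt (fuel : ℕ) : ∀ (w i : ℕ), i < 1408 → applyW fuel w i < 1408 := by
  induction fuel with
  | zero => exact fun w i hi => hi
  | succ fuel ih =>
    intro w i hi
    rw [applyW_succ]
    cases Nat.beq w 0 with
    | true => exact hi
    | false => exact ih _ _ (sg_lt (letter_lt w) hi)

theorem sg_fix {k : ℕ} (hk : k < 6) : sg k x0 = x0 := Nat.eq_of_beq_eq_true (allB_spec c_fix k hk)

theorem act_fix {k : ℕ} (hk : k < 6) : actF (genF k) x₀F = x₀F :=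
  Fin.ext (by rw [actF_gen (by omega)]; exact sg_fix hk)

theorem N0_inv {k j : ℕ} (hk : k < 6) (hj : j < 1408) (h : bit N0 j = true) : bit N0 (sg k j) = true := by
  have h1 := allB_spec (allB_spec c_N0inv k hk) j hj
  simp only [Bool.or_eq_true, Bool.not_eq_true'] at h1
  rcases h1 with h1 | h1
  · rw [h] at h1
    exact absurd h1 (by simp)
  · exact h1

/-- A neighbour of the base index. -/
def z₀F : Fin 1408 := ⟨z0, by decide⟩
/-- A non-neighbour of the base index. -/
def y₀F : Fin 1408 := ⟨y0, by decide⟩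

theorem isPt5 : isPt 5 = true := c_gen 6 (by omega)

theorem actF5 : actF 5 x₀F = z₀F := by
  apply Fin.ext
  have := actF_gen (k := 6) (by omega) x₀F
  rw [show genF 6 = 5 from rfl] at this
  rw [this]
  exact c_z0

theorem adj_z0 : M22.Adj x₀F z₀F :=
  adj_iff.2 ⟨5, isPt5, fun (k : bit (M1 x0) 5 = true) => by rw [c_x5] at k; exact absurd k (by simp), actF5⟩

/-- Every neighbour of the base index comes from the table. -/
theorem nbr_of_adj {j : Fin 1408} (h : M22.Adj x₀F j) : bit N0 j.1 = true := by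
  rw [adj_iff] at h
  obtain ⟨u, hu, hn, rfl⟩ := h
  have key : ∀ n u, eRkP (eP UTr u) = n → isPt u = true → ¬ memL u x0 → bit N0 (actF u x₀F).1 = true := by
    intro n
    induction n using Nat.strong_induction_on with
    | _ n ih =>
      intro u hrk hu hn
      have h1 := allB_spec c_utree u (isPt_lt hu)
      have h2 : and (bit PTS u) (not (bit (M1 x0) u)) = true := by
        rw [bit_of_isPt hu]
        have : bit (M1 x0) u = false := by
          cases h3 : bit (M1 x0) u with
          | false => rfl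
          | true => exact absurd h3 hn
        rw [this]
        rfl
      rw [h2] at h1
      have h3 : utreeChk u = true := h1
      unfold utreeChk at h3
      simp only [Bool.or_eq_true, Bool.and_eq_true] at h3
      rcases h3 with h3 | ⟨h4, h5, h6, h7, h8⟩
      · rw [Nat.eq_of_beq_eq_true h3, actF5]
        exact c_N0z
      · have hk : eK (eP UTr u) < 6 := (blt_iff _ _).1 h4
        have hk7 : eK (eP UTr u) < 7 := by omega
        have hpar := isPt_of_bit h5
        have hnp : ¬ memL (ePar (eP UTr u)) x0 := by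
          intro k
          have h9 : bit (M1 x0) (ePar (eP UTr u)) = true := k
          rw [h9] at h6
          exact absurd h6 (by simp)
        have hlt := (blt_iff _ _).1 h7
        have e := Nat.eq_of_beq_eq_true h8
        rw [tauL_eq hk7 hpar] at e
        have hs := c_gen _ hk7
        rw [← e]
        have e2 := actF_tp hs hpar x₀F
        rw [act_fix hk] at e2
        rw [e2, actF_gen hk7]
        exact N0_inv hk (Fin.is_lt _) (ih _ (by rw [← hrk]; exact hlt) _ rfl hpar hnp)
  exact key _ u rfl hu hn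

/-- Induction on the forest. -/
theorem forest_ind (P : Fin 1408 → Prop) (hz : P z₀F) (hy : P y₀F)
    (hstep : ∀ k, k < 6 → ∀ i : Fin 1408, i ≠ x₀F → P i → P (actF (genF k) i)) : ∀ j, j ≠ x₀F → P j := by
  have key : ∀ n (j : Fin 1408), iRk (eI HTr j.1) = n → j ≠ x₀F → P j := by
    intro n
    induction n using Nat.strong_induction_on with
    | _ n ih =>
      intro j hn hj
      have h1 := allB_spec c_htree j.1 j.2
      unfold htreeChk at h1
      simp only [Bool.or_eq_true, Bool.and_eq_true] at h1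
      rcases h1 with h1 | h1 | h1 | ⟨h2, h3, h4, h5, h6⟩
      · exact absurd (Fin.ext (Nat.eq_of_beq_eq_true h1)) hj
      · rw [show j = z₀F from Fin.ext (Nat.eq_of_beq_eq_true h1)]
        exact hz
      · rw [show j = y₀F from Fin.ext (Nat.eq_of_beq_eq_true h1)]
        exact hy
      · have hk : eK (eI HTr j.1) < 6 := (blt_iff _ _).1 h2
        have hpar : iPar (eI HTr j.1) < 1408 := (blt_iff _ _).1 h3
        have hne : (⟨_, hpar⟩ : Fin 1408) ≠ x₀F := by
          intro k
          have k2 : iPar (eI HTr j.1) = x0 := congrArg Fin.val k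
          rw [k2] at h4
          simp at h4
        have hlt := (blt_iff _ _).1 h5
        have e := Nat.eq_of_beq_eq_true h6
        have e2 : actF (genF (eK (eI HTr j.1))) ⟨_, hpar⟩ = j := by
          apply Fin.ext
          rw [actF_gen (by omega)]
          exact e
        rw [← e2]
        exact hstep _ hk _ hne (ih _ (by rw [← hn]; exact hlt) _ rfl hne)
  exact fun j => key _ j rfl

theorem act_map {k : ℕ} (hk : k < 6) {i j : Fin 1408} (h : M22.Adj i j) : M22.Adj (actF (genF k) i) (actF (genF k) j) :=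
  adj_act (c_gen k (by omega)) h

theorem bit_act_false {k : ℕ} (hk : k < 6) {i : Fin 1408} (h : bit N0 (actF (genF k) i).1 = false) : bit N0 i.1 = false := by
  cases h1 : bit N0 i.1 with
  | false => rfl
  | true =>
    have h2 := N0_inv hk i.2 h1
    rw [actF_gen (by omega)] at h
    rw [h] at h2
    exact absurd h2 (by simp)

/-- The neighbours of the base index. -/
theorem adj_of_nbr : ∀ j, j ≠ x₀F → bit N0 j.1 = true → M22.Adj x₀F j := by
  apply forest_ind
  · exact fun _ => adj_z0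
  · intro k
    have : bit N0 y₀F.1 = false := c_N0y
    rw [this] at k
    exact absurd k (by simp)
  · intro k hk i _ ih h
    have h1 : bit N0 i.1 = true := by
      have h2 := N0_inv hk (Fin.is_lt _) h
      rw [actF_gen (by omega), sg_sg (by omega) i.2] at h2
      exact h2
    have h3 := act_map hk (ih h1)
    rwa [act_fix hk] at h3

theorem adj_x_iff {j : Fin 1408} : M22.Adj x₀F j ↔ bit N0 j.1 = true := by
  constructor
  · exact nbr_of_adj
  · intro h
    apply adj_of_nbr j _ h
    rintro rfl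
    have : bit N0 x₀F.1 = false := c_N0x
    rw [this] at h
    exact absurd h (by simp)

theorem not_adj_x : ¬ M22.Adj x₀F x₀F := by
  intro h
  have h1 := nbr_of_adj h
  have : bit N0 x₀F.1 = false := c_N0x
  rw [this] at h1
  exact absurd h1 (by simp)

theorem adj_y_iff {j : Fin 1408} : M22.Adj y₀F j ↔ bit Y0 j.1 = true := by
  have h0 := allB_spec c_Y0 j.1 j.2
  simp only [Bool.and_eq_true, Bool.or_eq_true, Bool.not_eq_true'] at h0
  have hb := applyW_lt 20 w0r j.1 j.2
  constructor
  · intro h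
    have h1 : M22.Adj x₀F ⟨_, hb⟩ := edge_word 20 w0r y₀F j _ _ h c_w0r.symm rfl
    have h2 := nbr_of_adj h1
    have h3 := allB_spec c_Y0' j.1 j.2
    simp only [Bool.or_eq_true, Bool.not_eq_true'] at h3
    rcases h3 with h3 | h3
    · rw [h2] at h3
      exact absurd h3 (by simp)
    · exact h3
  · intro h
    rcases h0.2 with h1 | h1
    · rw [h] at h1
      exact absurd h1 (by simp)
    · have h2 := adj_x_iff (j := ⟨_, hb⟩).2 h1
      exact edge_word 20 w0 x₀F ⟨_, hb⟩ _ _ h2 c_w0.symm (Nat.eq_of_beq_eq_true h0.1).symm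

/-- The pivot. -/
def pivF : Fin 1408 := ⟨piv, by decide⟩

theorem good_y0 : Good M22.Adj x₀F y₀F := by
  have hp : bit N0 piv = true ∧ bit Y0 piv = true := by
    have := c_piv
    simpa only [Bool.and_eq_true] using this
  have hb : ∀ e, (applyW 20 e x0) < 1408 := fun e => applyW_lt 20 e x0 (by decide)
  refine ⟨pivF, adj_x_iff.2 hp.1, adj_symm (adj_y_iff.2 hp.2), ?_, ?_⟩
  · have key : ∀ n (z : Fin 1408), cRk (eC z.1) = n → bit N0 z.1 = true → bit Y0 z.1 = true →
        Relation.ReflTransGen (fun a b => M22.Adj a b ∧ M22.Adj x₀F b ∧ M22.Adj b y₀F) pivF z := by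
      intro n
      induction n using Nat.strong_induction_on with
      | _ n ih =>
        intro z hn h1 h2
        have h3 := allB_spec c_B z.1 z.2
        rw [h1, h2] at h3
        have h4 : bChk z.1 = true := h3
        unfold bChk at h4
        simp only [Bool.or_eq_true, Bool.and_eq_true] at h4
        rcases h4 with h4 | ⟨h5, h6, h7, h8, h9⟩
        · rw [show z = pivF from Fin.ext (Nat.eq_of_beq_eq_true h4)]
        · have e1 := Nat.eq_of_beq_eq_true h8
          have e2 := Nat.eq_of_beq_eq_true h9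
          have hlt := (blt_iff _ _).1 h7
          have hb2 : cPt (eC z.1) < 1408 := by
            rw [← e1]
            exact hb _
          have hE : M22.Adj ⟨_, hb2⟩ z := edge_word 20 _ x₀F z₀F _ _ adj_z0 e1.symm e2.symm
          exact (ih _ (by rw [← hn]; exact hlt) ⟨_, hb2⟩ rfl h5 h6).tail ⟨hE, adj_x_iff.2 h1, adj_symm (adj_y_iff.2 h2)⟩
    intro z hz hzy
    exact key _ z rfl (adj_x_iff.1 hz) (adj_y_iff.1 (adj_symm hzy))
  · intro y' _ hn hyy'
    have h1 := adj_y_iff.1 hyy'
    have h2 : bit N0 y'.1 = false := by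
      cases h3 : bit N0 y'.1 with
      | false => rfl
      | true =>
        exfalso
        apply hn
        exact adj_x_iff.2 h3
    have h3 := allB_spec c_C y'.1 y'.2
    rw [h1, h2] at h3
    have h4 : cChk y'.1 = true := h3
    unfold cChk at h4
    simp only [Bool.and_eq_true] at h4
    obtain ⟨h5, h6, h8, h9⟩ := h4
    have e1 := Nat.eq_of_beq_eq_true h8
    have e2 := Nat.eq_of_beq_eq_true h9
    have hb2 : cPt (eC y'.1) < 1408 := by
      rw [← e1]
      exact hb _
    exact ⟨⟨_, hb2⟩, adj_x_iff.2 h5, adj_symm (adj_y_iff.2 h6), edge_word 20 _ x₀F z₀F _ _ adj_z0 e1.symm e2.symm⟩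

theorem good_all : ∀ j, j ≠ x₀F → bit N0 j.1 = false → Good M22.Adj x₀F j := by
  apply forest_ind
  · intro k
    rw [show bit N0 z₀F.1 = true from c_N0z] at k
    exact absurd k (by simp)
  · exact fun _ => good_y0
  · intro k hk i _ ih h
    have hk7 : k < 7 := by omega
    have hs := c_gen k hk7
    exact (ih (bit_act_false hk h)).map _ _ (fun _ _ h => adj_act hs h) (fun _ _ h => adj_act hs h) (actF_actF hs)
      (actF_actF hs) (act_fix hk)

/-- **The fill property.** -/
theorem fill : ∃ (par : Fin 1408 → Fin 1408) (rk : Fin 1408 → ℕ), (∀ i, i ≠ x₀F → rk (par i) < rk i) ∧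
    (∀ i, i ≠ x₀F → M22.Adj (par i) i) ∧ FillProp M22.Adj x₀F par := by
  have hg : ∀ y, y ≠ x₀F → ¬ M22.Adj x₀F y → Good M22.Adj x₀F y := by
    intro y hy hn
    apply good_all y hy
    cases h : bit N0 y.1 with
    | false => rfl
    | true => exact absurd (adj_x_iff.2 h) hn
  exact ⟨parOf M22.Adj x₀F hg, rkOf M22.Adj x₀F, fill_of_local (A := M22.Adj) (x₀ := x₀F) (fun _ _ h => adj_symm h) not_adj_x hg⟩

/-- **Comparison for the model of `M22`.** -/
theorem compare_M22 {G₁ G₂ : Type*} [Group G₁] [Group G₂] [Finite G₁] [Finite G₂] {D₁ : Set G₁} {D₂ : Set G₂}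
    {d₁ : G₁} {d₂ : G₂} {π₁ : G₁ → ℕ} {π₂ : G₂ → ℕ} (h₁ : Cfsg.Agent.Lib.Fischer.Basic.TT D₁) (h₂ : Cfsg.Agent.Lib.Fischer.Basic.TT D₂)
    (hd₁ : d₁ ∈ D₁) (hd₂ : d₂ ∈ D₂)
    (hcl₁ : ∀ x ∈ D₁, ∀ y ∈ D₁, ∃ g : G₁, g * x * g⁻¹ = y) (hcl₂ : ∀ x ∈ D₂, ∀ y ∈ D₂, ∃ g : G₂, g * x * g⁻¹ = y)
    (hgen₁ : Subgroup.closure D₁ = ⊤) (hgen₂ : Subgroup.closure D₂ = ⊤)
    (hz₁ : Subgroup.center G₁ = ⊥) (hz₂ : Subgroup.center G₂ = ⊥)
    (L₁ : LocalMap M22 D₁ d₁ π₁) (L₂ : LocalMap M22 D₂ d₂ π₂) :
    ∃ e : G₁ ≃* G₂, e d₁ = d₂ ∧ e '' D₁ = D₂ := by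
  obtain ⟨par, rk, hrk, hpar, hfill⟩ := fill
  exact Compare.main h₁ h₂ hd₁ hd₂ hcl₁ hcl₂ hgen₁ hgen₂ hz₁ hz₂ L₁ L₂ x₀F par rk hrk hpar hfill

end Cfsg.Agent.Lib.Fischer.M22.LFill
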