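/-
Every involution of the explicit model of type M(22) lifts to an involution in any central extension by a group of
order two: seven commuting transpositions have product one, and an eighth commutes with them.
-/
import Mathlib
import Cfsg.Agent.Lib.Fischer.LiftInvol
import Cfsg.Agent.Lib.Fischer.M22.ExplicitInvol
import Cfsg.Agent.Lib.Fischer.M22.Rows.Bound

set_option autoImplicit false
set_option maxRecDepth 100000

namespace Cfsg.Agent.Lib.Fischer.M22.LiftFi22

open Cfsg Cfsg.Agent.Lib.Compute.ToddCoxeterCore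
open Cfsg.Agent.Lib.Fischer.M22.Explicit hiding tn
open Cfsg.Agent.Lib.Fischer.M22.Rows
open Cfsg.Agent.Lib.Fischer.LiftInvol

/-- The seven labels. -/
def ql : List ℕ := [0, 696, 1251, 693, 605, 1715, 113]

/-- The eighth label. -/
def q8 : ℕ := 351

theorem ql_lt : ∀ q ∈ q8 :: ql, q < NN := by decide +kernel

theorem tn_mem {q : ℕ} (h : q < NN) : tn q ∈ D0 := by
  have := tn_val ⟨q, h⟩
  rw [show tn q = t ⟨q, h⟩ from this]
  exact t_mem _

theorem tn_conj {q : ℕ} (h : q < NN) : IsConj a0 (tn q) := by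
  have := tn_val ⟨q, h⟩
  rw [show tn q = t ⟨q, h⟩ from this]
  exact isConj_iff.2 ⟨wt _, rfl⟩

theorem tn_comm {p q : ℕ} (hp : p < NN) (hq : q < NN) (h : tv p q = q) : tn p * tn q = tn q * tn p := by
  have e1 := tn_val ⟨p, hp⟩
  have e2 := tn_val ⟨q, hq⟩
  rw [show tn p = t ⟨p, hp⟩ from e1, show tn q = t ⟨q, hq⟩ from e2]
  have h1 : Commute (t ⟨p, hp⟩) (t ⟨q, hq⟩) := by
    rw [comm_t_iff]
    apply Fin.ext
    rw [tv_spec]
    exact h
  exact h1

theorem tn_ne {p q : ℕ} (hp : p < NN) (hq : q < NN) (h : p ≠ q) : tn p ≠ tn q := by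
  have e1 := tn_val ⟨p, hp⟩
  have e2 := tn_val ⟨q, hq⟩
  rw [show tn p = t ⟨p, hp⟩ from e1, show tn q = t ⟨q, hq⟩ from e2]
  intro h1
  exact h (congrArg Fin.val (t_inj h1))

theorem prod_eq_wordEl (l : List ℕ) : (l.map tn).prod = wordEl tn l.reverse := by
  induction l with
  | nil => rfl
  | cons x u ih =>
    rw [List.map_cons, List.prod_cons, ih, List.reverse_cons, wordEl_append]
    simp

theorem tn_val' (x : ℕ) (hx : x < NN) (i : Fin NN) : ((φ (tn x) i : Fin NN) : ℕ) = tv x i := by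
  rw [show tn x = t ⟨x, hx⟩ from tn_val ⟨x, hx⟩]
  exact tv_spec _ _

theorem rel7 : base.all (fun b => Nat.beq (run tv ql.reverse b) b) = true := by decide +kernel

theorem prod_ql : (ql.map tn).prod = 1 := by
  rw [prod_eq_wordEl]
  apply base_ext
  intro b hb
  apply Fin.ext
  have h1 : ∀ x ∈ ql.reverse, ∀ i : Fin NN, ((φ (tn x) i : Fin NN) : ℕ) = tv x i := by
    intro x hx i
    apply tn_val'
    apply ql_lt
    rw [List.mem_reverse] at hx
    exact List.mem_cons_of_mem _ hx
  rw [run_spec h1]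
  exact Nat.eq_of_beq_eq_true (List.all_eq_true.1 rel7 b hb)

/-- The checks on pairs. -/
noncomputable def pairChk : List ℕ → Bool
  | [] => true
  | p :: l => l.all (fun q => Nat.beq (tv p q) q && !Nat.beq p q) && pairChk l

theorem pairChk_ok : pairChk (q8 :: ql) = true := by decide +kernel

theorem pair_of_chk : ∀ l : List ℕ, (∀ q ∈ l, q < NN) → pairChk l = true →
    l.Pairwise (fun p q => p < NN ∧ q < NN ∧ p ≠ q ∧ tv p q = q) := by
  intro l
  induction l with
  | nil => intro _ _; exact List.Pairwise.nil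
  | cons p l ih =>
    intro hl h
    rw [pairChk, Bool.and_eq_true] at h
    refine List.Pairwise.cons ?_ (ih (fun q hq => hl q (List.mem_cons_of_mem _ hq)) h.2)
    intro q hq
    have h1 := List.all_eq_true.1 h.1 q hq
    rw [Bool.and_eq_true] at h1
    refine ⟨hl p (by simp), hl q (List.mem_cons_of_mem _ hq), ?_, Nat.eq_of_beq_eq_true h1.1⟩
    intro e
    subst e
    have h2 := h1.2
    simp at h2

theorem pairs : (q8 :: ql).Pairwise (fun p q => p < NN ∧ q < NN ∧ p ≠ q ∧ tv p q = q) :=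
  pair_of_chk _ ql_lt pairChk_ok

/-- The product of two commuting distinct transpositions. -/
theorem PM2 {a b : G0} (ha : a ∈ D0) (hb : b ∈ D0) (hne : a ≠ b) (hc : a * b = b * a) : PM D0 2 (a * b) := by
  refine ⟨[a, b], ?_, rfl, ?_, ?_, by simp⟩
  · simp [hne]
  · intro x hx
    simp only [List.mem_cons, List.not_mem_nil, or_false] at hx
    rcases hx with rfl | rfl <;> assumption
  · intro x hx y hy
    simp only [List.mem_cons, List.not_mem_nil, or_false] at hx hy
    rcases hx with rfl | rfl <;> rcases hy with rfl | rfl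
    · exact Commute.refl _
    · exact hc
    · exact hc.symm
    · exact Commute.refl _

/-- The representative of the products of two. -/
noncomputable def z0 : G0 := tn 351 * tn 0

theorem z0_pm : PM D0 2 z0 :=
  PM2 (tn_mem (by decide +kernel)) (tn_mem (by decide +kernel)) (tn_ne (by decide +kernel) (by decide +kernel) (by decide))
    (tn_comm (by decide +kernel) (by decide +kernel) (by decide +kernel))

theorem sq_of_D0 {a : G0} (ha : a ∈ D0) : a * a = 1 := by
  obtain ⟨p, rfl⟩ := mem_D0.1 ha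
  exact t_sq p

theorem z0_sq : z0 * z0 = 1 := by
  have hc : tn 351 * tn 0 = tn 0 * tn 351 := tn_comm (by decide +kernel) (by decide +kernel) (by decide +kernel)
  calc z0 * z0 = tn 351 * tn 0 * (tn 351 * tn 0) := rfl
    _ = tn 351 * (tn 0 * tn 351) * tn 0 := by group
    _ = tn 351 * (tn 351 * tn 0) * tn 0 := by rw [hc]
    _ = (tn 351 * tn 351) * (tn 0 * tn 0) := by group
    _ = 1 := by rw [tn_sq, tn_sq, one_mul]

theorem conj_z0 {a b : G0} (ha : a ∈ D0) (hb : b ∈ D0) (hne : a ≠ b) (hc : a * b = b * a) : IsConj z0 (a * b) :=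
  ((invol0.2.1 2 (by norm_num) (by norm_num)).2) _ _ z0_pm (PM2 ha hb hne hc)

variable {C : Type*} [Group C] {π : C →* G0} {d : C}

theorem main_F (E : CExt π d) : (∀ y, π y = z0 → y * y = 1) ∧ (∀ y, π y = a0 → y * y = 1) := by
  have hp := pairs
  rw [q8, List.pairwise_cons] at hp
  refine LiftInvol.main E (w := tn 351) (T := ql.map tn) a0_sq z0_sq (by decide) prod_ql (tn_conj (by decide +kernel)) ?_ ?_ ?_
  · intro a ha
    obtain ⟨q, hq, rfl⟩ := List.mem_map.1 ha
    exact tn_conj (ql_lt q (List.mem_cons_of_mem _ hq))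
  · intro a ha
    obtain ⟨q, hq, rfl⟩ := List.mem_map.1 ha
    obtain ⟨h1, h2, h3, h4⟩ := hp.1 q hq
    have hc := tn_comm h1 h2 h4
    exact ⟨hc, conj_z0 (tn_mem h1) (tn_mem h2) (tn_ne h1 h2 h3) hc⟩
  · rw [List.pairwise_map]
    apply hp.2.imp
    rintro p q ⟨h1, h2, h3, h4⟩
    have hc := tn_comm h1 h2 h4
    exact ⟨hc, conj_z0 (tn_mem h1) (tn_mem h2) (tn_ne h1 h2 h3) hc⟩

/-- **Every involution lifts to an involution.** -/
theorem lift_G0 (E : CExt π d) (x : G0) (hx : x * x = 1) : ∃ y, π y = x ∧ y * y = 1 := by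
  by_cases hx1 : x = 1
  · exact ⟨1, by rw [map_one, hx1], by simp⟩
  have hord : orderOf x = 2 := orderOf_eq_prime (by rw [pow_two, hx]) hx1
  obtain ⟨m, -, -, l, hn, -, hD, hc, rfl⟩ := invol0.1 x hord
  obtain ⟨hz, ht⟩ := main_F E
  set s := Function.surjInv E.surj with hs
  have hss : ∀ a, π (s a) = a := Function.surjInv_eq E.surj
  have ht' : ∀ a ∈ D0, s a * s a = 1 := by
    intro a ha
    obtain ⟨p, rfl⟩ := mem_D0.1 ha
    obtain ⟨a', ha'⟩ := E.surj a0
    have h1 : π a' * π a' = 1 := by rw [ha']; exact a0_sq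
    rw [← E.sq_conj (a := a') (b := s (t p)) h1 (by rw [ha', hss]; exact isConj_iff.2 ⟨wt _, rfl⟩)]
    exact ht a' ha'
  have hcomm : (l.map s).Pairwise Commute := by
    rw [List.pairwise_map]
    have h1 : l.Pairwise (fun a b => a ≠ b) := hn
    apply h1.imp_of_mem
    intro a b ha hb hab
    have hab' : a * b = b * a := hc a ha b hb
    have hca : ∀ {a : G0}, a ∈ D0 → IsConj a0 a := by
      intro a ha
      obtain ⟨p, rfl⟩ := mem_D0.1 ha
      exact isConj_iff.2 ⟨wt _, rfl⟩
    exact lifts_commute E a0_sq z0_sq hz ht (hca (hD a ha)) (hca (hD b hb)) hab'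
      (conj_z0 (hD a ha) (hD b hb) hab hab') (hss a) (hss b)
  refine ⟨(l.map s).prod, ?_, ?_⟩
  · rw [map_list_prod, List.map_map]
    congr 1
    conv_rhs => rw [← List.map_id l]
    exact List.map_congr_left (fun a _ => hss a)
  · have h1 := sq_prod (e := 1) (l.map s) (by
      intro y hy
      obtain ⟨a, ha, rfl⟩ := List.mem_map.1 hy
      exact ht' a (hD a ha)) hcomm
    rwa [one_pow] at h1

end Cfsg.Agent.Lib.Fischer.M22.LiftFi22
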