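/-
Every involution of `PSU₆(2)` lifts to an involution in any central extension by a group of order two.
-/
import Mathlib
import Cfsg.Agent.Lib.Fischer.LiftInvol
import Cfsg.Agent.Lib.Fischer.M22.PSU

set_option autoImplicit false
set_option linter.unusedSectionVars false
set_option linter.unusedSimpArgs false
set_option linter.unusedVariables false
set_option maxRecDepth 100000

namespace Cfsg.Agent.Lib.Fischer.M22.LiftU62

open scoped Matrix
open Cfsg Cfsg.Agent.Lib.Fischer.M22.Model Cfsg.Agent.Lib.Compute.GF4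
open Cfsg.Agent.Lib.Fischer.M22.Bridge
open Cfsg.Agent.Lib.Classical.Herm.Basic Cfsg.Agent.Lib.Classical.Herm.Form
open Cfsg.Agent.Lib.Classical.Herm.GU Cfsg.Agent.Lib.Classical.Herm.SU
open Cfsg.Agent.Lib.Classical.Herm.Tv Cfsg.Agent.Lib.Classical.Herm.Comm
open Cfsg.Agent.Lib.Classical.Herm.Class
open Cfsg.Agent.Lib.Fischer.M22.PSU1 Cfsg.Agent.Lib.Fischer.M22.PSU2
open Cfsg.Agent.Lib.Fischer.LiftInvol

local notation "⟪" x ", " y "⟫" => hermForm 6 F4 2 x y

abbrev u1 : Fin 6 → F4 := y1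
abbrev u2 : Fin 6 → F4 := y2
abbrev u3 : Fin 6 → F4 := y1 + y2
abbrev u4 : Fin 6 → F4 := y1 + F4.w • y2
abbrev u5 : Fin 6 → F4 := y1 + F4.v • y2
abbrev w0 : Fin 6 → F4 := y3

theorem iso_u1 : ⟪u1, u1⟫ = 0 := by decide +kernel

theorem iso_u2 : ⟪u2, u2⟫ = 0 := by decide +kernel

theorem iso_w0 : ⟪w0, w0⟫ = 0 := by decide +kernel

theorem iso_u3 : ⟪u3, u3⟫ = 0 := by decide +kernel

theorem iso_u4 : ⟪u4, u4⟫ = 0 := by decide +kernel

theorem iso_u5 : ⟪u5, u5⟫ = 0 := by decide +kernel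

open F4 in
theorem rank_u1 : (mat (tauS u1 iso_u1) - 1).rank = 1 := by
  rw [mat_tauS]
  apply rank_eq_of_factor (r := 1)
    (Matrix.of ![![i], ![i], ![o], ![o], ![o], ![o]])
    (Matrix.of ![![i, i, o, o, o, o]])
    (Matrix.of ![![i, o, o, o, o, o]])
    (Matrix.of ![![i], ![o], ![o], ![o], ![o], ![o]])
  · decide +kernel
  · decide +kernel

open F4 in
theorem rank_u2 : (mat (tauS u2 iso_u2) - 1).rank = 1 := by
  rw [mat_tauS]
  apply rank_eq_of_factor (r := 1)
    (Matrix.of ![![i], ![i], ![i], ![i], ![o], ![o]])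
    (Matrix.of ![![i, i, i, i, o, o]])
    (Matrix.of ![![i, o, o, o, o, o]])
    (Matrix.of ![![i], ![o], ![o], ![o], ![o], ![o]])
  · decide +kernel
  · decide +kernel

open F4 in
theorem rank_w0 : (mat (tauS w0 iso_w0) - 1).rank = 1 := by
  rw [mat_tauS]
  apply rank_eq_of_factor (r := 1)
    (Matrix.of ![![o], ![o], ![i], ![i], ![i], ![i]])
    (Matrix.of ![![o, o, i, i, i, i]])
    (Matrix.of ![![o, o, i, o, o, o]])
    (Matrix.of ![![o], ![o], ![i], ![o], ![o], ![o]])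
  · decide +kernel
  · decide +kernel

open F4 in
theorem rank_u3 : (mat (tauS u3 iso_u3) - 1).rank = 1 := by
  rw [mat_tauS]
  apply rank_eq_of_factor (r := 1)
    (Matrix.of ![![o], ![o], ![i], ![i], ![o], ![o]])
    (Matrix.of ![![o, o, i, i, o, o]])
    (Matrix.of ![![o, o, i, o, o, o]])
    (Matrix.of ![![o], ![o], ![i], ![o], ![o], ![o]])
  · decide +kernel
  · decide +kernel

open F4 in
theorem rank_u4 : (mat (tauS u4 iso_u4) - 1).rank = 1 := by
  rw [mat_tauS]
  apply rank_eq_of_factor (r := 1)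
    (Matrix.of ![![v], ![v], ![w], ![w], ![o], ![o]])
    (Matrix.of ![![w, w, v, v, o, o]])
    (Matrix.of ![![w, o, o, o, o, o]])
    (Matrix.of ![![v], ![o], ![o], ![o], ![o], ![o]])
  · decide +kernel
  · decide +kernel

open F4 in
theorem rank_u5 : (mat (tauS u5 iso_u5) - 1).rank = 1 := by
  rw [mat_tauS]
  apply rank_eq_of_factor (r := 1)
    (Matrix.of ![![w], ![w], ![v], ![v], ![o], ![o]])
    (Matrix.of ![![v, v, w, w, o, o]])
    (Matrix.of ![![v, o, o, o, o, o]])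
    (Matrix.of ![![w], ![o], ![o], ![o], ![o], ![o]])
  · decide +kernel
  · decide +kernel

open F4 in
theorem rank_w0_u1 : (mat (tauS w0 iso_w0 * tauS u1 iso_u1) - 1).rank = 2 := by
  rw [mat_mul_S, mat_tauS, mat_tauS]
  apply rank_eq_of_factor (r := 2)
    (Matrix.of ![![o, i], ![o, i], ![i, o], ![i, o], ![i, o], ![i, o]])
    (Matrix.of ![![o, o, i, i, i, i], ![i, i, o, o, o, o]])
    (Matrix.of ![![o, o, i, o, o, o], ![i, o, o, o, o, o]])
    (Matrix.of ![![o, i], ![o, o], ![i, o], ![o, o], ![o, o], ![o, o]])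
  · decide +kernel
  · decide +kernel

theorem perp_w0_u1 : ⟪w0, u1⟫ = 0 := by decide +kernel

open F4 in
theorem rank_w0_u2 : (mat (tauS w0 iso_w0 * tauS u2 iso_u2) - 1).rank = 2 := by
  rw [mat_mul_S, mat_tauS, mat_tauS]
  apply rank_eq_of_factor (r := 2)
    (Matrix.of ![![o, i], ![o, i], ![i, i], ![i, i], ![i, o], ![i, o]])
    (Matrix.of ![![o, o, i, i, i, i], ![i, i, i, i, o, o]])
    (Matrix.of ![![i, o, i, o, o, o], ![i, o, o, o, o, o]])
    (Matrix.of ![![i, i], ![o, o], ![i, o], ![o, o], ![o, o], ![o, o]])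
  · decide +kernel
  · decide +kernel

theorem perp_w0_u2 : ⟪w0, u2⟫ = 0 := by decide +kernel

open F4 in
theorem rank_w0_u3 : (mat (tauS w0 iso_w0 * tauS u3 iso_u3) - 1).rank = 2 := by
  rw [mat_mul_S, mat_tauS, mat_tauS]
  apply rank_eq_of_factor (r := 2)
    (Matrix.of ![![o, o], ![o, o], ![i, i], ![i, i], ![i, o], ![i, o]])
    (Matrix.of ![![o, o, i, i, i, i], ![o, o, i, i, o, o]])
    (Matrix.of ![![o, o, o, o, i, o], ![o, o, i, o, i, o]])
    (Matrix.of ![![o, o], ![o, o], ![o, i], ![o, o], ![i, i], ![o, o]])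
  · decide +kernel
  · decide +kernel

theorem perp_w0_u3 : ⟪w0, u3⟫ = 0 := by decide +kernel

open F4 in
theorem rank_w0_u4 : (mat (tauS w0 iso_w0 * tauS u4 iso_u4) - 1).rank = 2 := by
  rw [mat_mul_S, mat_tauS, mat_tauS]
  apply rank_eq_of_factor (r := 2)
    (Matrix.of ![![o, v], ![o, v], ![i, w], ![i, w], ![i, o], ![i, o]])
    (Matrix.of ![![o, o, i, i, i, i], ![w, w, v, v, o, o]])
    (Matrix.of ![![v, o, i, o, o, o], ![w, o, o, o, o, o]])
    (Matrix.of ![![w, v], ![o, o], ![i, o], ![o, o], ![o, o], ![o, o]])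
  · decide +kernel
  · decide +kernel

theorem perp_w0_u4 : ⟪w0, u4⟫ = 0 := by decide +kernel

open F4 in
theorem rank_w0_u5 : (mat (tauS w0 iso_w0 * tauS u5 iso_u5) - 1).rank = 2 := by
  rw [mat_mul_S, mat_tauS, mat_tauS]
  apply rank_eq_of_factor (r := 2)
    (Matrix.of ![![o, w], ![o, w], ![i, v], ![i, v], ![i, o], ![i, o]])
    (Matrix.of ![![o, o, i, i, i, i], ![v, v, w, w, o, o]])
    (Matrix.of ![![w, o, i, o, o, o], ![v, o, o, o, o, o]])
    (Matrix.of ![![v, w], ![o, o], ![i, o], ![o, o], ![o, o], ![o, o]])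
  · decide +kernel
  · decide +kernel

theorem perp_w0_u5 : ⟪w0, u5⟫ = 0 := by decide +kernel

open F4 in
theorem rank_u1_u2 : (mat (tauS u1 iso_u1 * tauS u2 iso_u2) - 1).rank = 2 := by
  rw [mat_mul_S, mat_tauS, mat_tauS]
  apply rank_eq_of_factor (r := 2)
    (Matrix.of ![![i, i], ![i, i], ![o, i], ![o, i], ![o, o], ![o, o]])
    (Matrix.of ![![i, i, o, o, o, o], ![i, i, i, i, o, o]])
    (Matrix.of ![![i, o, i, o, o, o], ![o, o, i, o, o, o]])
    (Matrix.of ![![i, o], ![o, o], ![i, i], ![o, o], ![o, o], ![o, o]])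
  · decide +kernel
  · decide +kernel

theorem perp_u1_u2 : ⟪u1, u2⟫ = 0 := by decide +kernel

open F4 in
theorem rank_u1_u3 : (mat (tauS u1 iso_u1 * tauS u3 iso_u3) - 1).rank = 2 := by
  rw [mat_mul_S, mat_tauS, mat_tauS]
  apply rank_eq_of_factor (r := 2)
    (Matrix.of ![![i, o], ![i, o], ![o, i], ![o, i], ![o, o], ![o, o]])
    (Matrix.of ![![i, i, o, o, o, o], ![o, o, i, i, o, o]])
    (Matrix.of ![![i, o, o, o, o, o], ![o, o, i, o, o, o]])
    (Matrix.of ![![i, o], ![o, o], ![o, i], ![o, o], ![o, o], ![o, o]])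
  · decide +kernel
  · decide +kernel

theorem perp_u1_u3 : ⟪u1, u3⟫ = 0 := by decide +kernel

open F4 in
theorem rank_u1_u4 : (mat (tauS u1 iso_u1 * tauS u4 iso_u4) - 1).rank = 2 := by
  rw [mat_mul_S, mat_tauS, mat_tauS]
  apply rank_eq_of_factor (r := 2)
    (Matrix.of ![![i, v], ![i, v], ![o, w], ![o, w], ![o, o], ![o, o]])
    (Matrix.of ![![i, i, o, o, o, o], ![w, w, v, v, o, o]])
    (Matrix.of ![![i, o, w, o, o, o], ![o, o, v, o, o, o]])
    (Matrix.of ![![i, o], ![o, o], ![v, w], ![o, o], ![o, o], ![o, o]])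
  · decide +kernel
  · decide +kernel

theorem perp_u1_u4 : ⟪u1, u4⟫ = 0 := by decide +kernel

open F4 in
theorem rank_u1_u5 : (mat (tauS u1 iso_u1 * tauS u5 iso_u5) - 1).rank = 2 := by
  rw [mat_mul_S, mat_tauS, mat_tauS]
  apply rank_eq_of_factor (r := 2)
    (Matrix.of ![![i, w], ![i, w], ![o, v], ![o, v], ![o, o], ![o, o]])
    (Matrix.of ![![i, i, o, o, o, o], ![v, v, w, w, o, o]])
    (Matrix.of ![![i, o, v, o, o, o], ![o, o, w, o, o, o]])
    (Matrix.of ![![i, o], ![o, o], ![w, v], ![o, o], ![o, o], ![o, o]])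
  · decide +kernel
  · decide +kernel

theorem perp_u1_u5 : ⟪u1, u5⟫ = 0 := by decide +kernel

open F4 in
theorem rank_u2_u3 : (mat (tauS u2 iso_u2 * tauS u3 iso_u3) - 1).rank = 2 := by
  rw [mat_mul_S, mat_tauS, mat_tauS]
  apply rank_eq_of_factor (r := 2)
    (Matrix.of ![![i, o], ![i, o], ![i, i], ![i, i], ![o, o], ![o, o]])
    (Matrix.of ![![i, i, i, i, o, o], ![o, o, i, i, o, o]])
    (Matrix.of ![![i, o, o, o, o, o], ![i, o, i, o, o, o]])
    (Matrix.of ![![i, i], ![o, o], ![o, i], ![o, o], ![o, o], ![o, o]])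
  · decide +kernel
  · decide +kernel

theorem perp_u2_u3 : ⟪u2, u3⟫ = 0 := by decide +kernel

open F4 in
theorem rank_u2_u4 : (mat (tauS u2 iso_u2 * tauS u4 iso_u4) - 1).rank = 2 := by
  rw [mat_mul_S, mat_tauS, mat_tauS]
  apply rank_eq_of_factor (r := 2)
    (Matrix.of ![![i, v], ![i, v], ![i, w], ![i, w], ![o, o], ![o, o]])
    (Matrix.of ![![i, i, i, i, o, o], ![w, w, v, v, o, o]])
    (Matrix.of ![![w, o, v, o, o, o], ![i, o, i, o, o, o]])
    (Matrix.of ![![v, i], ![o, o], ![w, i], ![o, o], ![o, o], ![o, o]])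
  · decide +kernel
  · decide +kernel

theorem perp_u2_u4 : ⟪u2, u4⟫ = 0 := by decide +kernel

open F4 in
theorem rank_u2_u5 : (mat (tauS u2 iso_u2 * tauS u5 iso_u5) - 1).rank = 2 := by
  rw [mat_mul_S, mat_tauS, mat_tauS]
  apply rank_eq_of_factor (r := 2)
    (Matrix.of ![![i, w], ![i, w], ![i, v], ![i, v], ![o, o], ![o, o]])
    (Matrix.of ![![i, i, i, i, o, o], ![v, v, w, w, o, o]])
    (Matrix.of ![![v, o, w, o, o, o], ![i, o, i, o, o, o]])
    (Matrix.of ![![w, i], ![o, o], ![v, i], ![o, o], ![o, o], ![o, o]])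
  · decide +kernel
  · decide +kernel

theorem perp_u2_u5 : ⟪u2, u5⟫ = 0 := by decide +kernel

open F4 in
theorem rank_u3_u4 : (mat (tauS u3 iso_u3 * tauS u4 iso_u4) - 1).rank = 2 := by
  rw [mat_mul_S, mat_tauS, mat_tauS]
  apply rank_eq_of_factor (r := 2)
    (Matrix.of ![![o, v], ![o, v], ![i, w], ![i, w], ![o, o], ![o, o]])
    (Matrix.of ![![o, o, i, i, o, o], ![w, w, v, v, o, o]])
    (Matrix.of ![![v, o, i, o, o, o], ![w, o, o, o, o, o]])
    (Matrix.of ![![w, v], ![o, o], ![i, o], ![o, o], ![o, o], ![o, o]])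
  · decide +kernel
  · decide +kernel

theorem perp_u3_u4 : ⟪u3, u4⟫ = 0 := by decide +kernel

open F4 in
theorem rank_u3_u5 : (mat (tauS u3 iso_u3 * tauS u5 iso_u5) - 1).rank = 2 := by
  rw [mat_mul_S, mat_tauS, mat_tauS]
  apply rank_eq_of_factor (r := 2)
    (Matrix.of ![![o, w], ![o, w], ![i, v], ![i, v], ![o, o], ![o, o]])
    (Matrix.of ![![o, o, i, i, o, o], ![v, v, w, w, o, o]])
    (Matrix.of ![![w, o, i, o, o, o], ![v, o, o, o, o, o]])
    (Matrix.of ![![v, w], ![o, o], ![i, o], ![o, o], ![o, o], ![o, o]])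
  · decide +kernel
  · decide +kernel

theorem perp_u3_u5 : ⟪u3, u5⟫ = 0 := by decide +kernel

open F4 in
theorem rank_u4_u5 : (mat (tauS u4 iso_u4 * tauS u5 iso_u5) - 1).rank = 2 := by
  rw [mat_mul_S, mat_tauS, mat_tauS]
  apply rank_eq_of_factor (r := 2)
    (Matrix.of ![![v, w], ![v, w], ![w, v], ![w, v], ![o, o], ![o, o]])
    (Matrix.of ![![w, w, v, v, o, o], ![v, v, w, w, o, o]])
    (Matrix.of ![![v, o, w, o, o, o], ![w, o, v, o, o, o]])
    (Matrix.of ![![w, v], ![o, o], ![v, w], ![o, o], ![o, o], ![o, o]])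
  · decide +kernel
  · decide +kernel

theorem perp_u4_u5 : ⟪u4, u5⟫ = 0 := by decide +kernel

/-- The image of a transvection. -/
noncomputable abbrev tt (v : Fin 6 → F4) (hv : ⟪v, v⟫ = 0) : PS := mkS (tauS v hv)

theorem tt_sq (v : Fin 6 → F4) (hv : ⟪v, v⟫ = 0) : tt v hv * tt v hv = 1 := by
  rw [tt, ← map_mul, tauS_sq, map_one]

noncomputable abbrev t0 : PS := tt u1 iso_u1
noncomputable abbrev z0 : PS := mkS t2

theorem t2_ne : t2 ≠ 1 := by
  intro h
  have h1 := rank_t2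
  rw [h] at h1
  have h2 : mat (1 : S) - 1 = 0 := by
    rw [sub_eq_zero]
    rfl
  rw [h2, Matrix.rank_zero] at h1
  omega

theorem tau_ne (v : Fin 6 → F4) (hv : ⟪v, v⟫ = 0) (hr : (mat (tauS v hv) - 1).rank = 1) : tauS v hv ≠ 1 := by
  intro h
  rw [h] at hr
  have h2 : mat (1 : S) - 1 = 0 := by
    rw [sub_eq_zero]
    rfl
  rw [h2, Matrix.rank_zero] at hr
  omega

theorem conj_t0 (v : Fin 6 → F4) (hv : ⟪v, v⟫ = 0) (hr : (mat (tauS v hv) - 1).rank = 1) : IsConj t0 (tt v hv) := by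
  have h := Cfsg.Agent.Lib.Classical.Herm.InvolChar2.isConj_of_rank_eq hF4 (tauS_sq u1 iso_u1) (tauS_sq v hv)
    (tau_ne _ _ rank_u1) (by rw [rank_u1, hr])
  exact MonoidHom.map_isConj mkS h

theorem pair_of (v u : Fin 6 → F4) (hv : ⟪v, v⟫ = 0) (hu : ⟪u, u⟫ = 0) (hp : ⟪v, u⟫ = 0)
    (hr : (mat (tauS v hv * tauS u hu) - 1).rank = 2) :
    tt v hv * tt u hu = tt u hu * tt v hv ∧ IsConj z0 (tt v hv * tt u hu) := by
  have hc := tauS_comm_of_perp hv hu hp
  refine ⟨?_, ?_⟩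
  · rw [tt, tt, ← map_mul, ← map_mul, hc]
  · have h1 : tauS v hv * tauS u hu * (tauS v hv * tauS u hu) = 1 := by
      calc tauS v hv * tauS u hu * (tauS v hv * tauS u hu)
          = tauS v hv * (tauS u hu * tauS v hv) * tauS u hu := by group
        _ = tauS v hv * (tauS v hv * tauS u hu) * tauS u hu := by rw [hc]
        _ = (tauS v hv * tauS v hv) * (tauS u hu * tauS u hu) := by group
        _ = 1 := by rw [tauS_sq, tauS_sq, one_mul]
    have h := Cfsg.Agent.Lib.Classical.Herm.InvolChar2.isConj_of_rank_eq hF4 t2_sq h1 t2_ne (by rw [rank_t2, hr])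
    have h2 := MonoidHom.map_isConj mkS h
    rw [map_mul] at h2
    exact h2

noncomputable abbrev TT0 : List PS :=
  [tt u1 iso_u1, tt u2 iso_u2, tt u3 iso_u3, tt u4 iso_u4, tt u5 iso_u5]

theorem prod_TT0 : TT0.prod = 1 := by
  have h := tau_line (v := y1) (w := y2) iso_y1 iso_y2 (by decide +kernel) iso_u3 iso_u4 iso_u5
  have h1 := congrArg mkS h
  rw [map_one, map_mul, map_mul, map_mul, map_mul] at h1
  simp only [List.prod_cons, List.prod_nil, mul_one]
  rw [← h1]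
  simp only [mul_assoc]

variable {C : Type*} [Group C] {π : C →* PS} {d : C}

theorem main_U (E : CExt π d) : (∀ y, π y = z0 → y * y = 1) ∧ (∀ y, π y = t0 → y * y = 1) := by
  refine LiftInvol.main E (w := tt w0 iso_w0) (T := TT0) (tt_sq _ _) ?_ (by decide) prod_TT0 (conj_t0 _ _ rank_w0) ?_ ?_ ?_
  · rw [z0, ← map_mul, t2_sq, map_one]
  · intro a ha
    simp only [List.mem_cons, List.not_mem_nil, or_false] at ha
    rcases ha with rfl | rfl | rfl | rfl | rfl
    · exact conj_t0 _ _ rank_u1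
    · exact conj_t0 _ _ rank_u2
    · exact conj_t0 _ _ rank_u3
    · exact conj_t0 _ _ rank_u4
    · exact conj_t0 _ _ rank_u5
  · intro a ha
    simp only [List.mem_cons, List.not_mem_nil, or_false] at ha
    rcases ha with rfl | rfl | rfl | rfl | rfl
    · exact pair_of _ _ _ _ perp_w0_u1 rank_w0_u1
    · exact pair_of _ _ _ _ perp_w0_u2 rank_w0_u2
    · exact pair_of _ _ _ _ perp_w0_u3 rank_w0_u3
    · exact pair_of _ _ _ _ perp_w0_u4 rank_w0_u4
    · exact pair_of _ _ _ _ perp_w0_u5 rank_w0_u5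
  · refine List.Pairwise.cons ?_ (List.Pairwise.cons ?_ (List.Pairwise.cons ?_ (List.Pairwise.cons ?_
      (List.Pairwise.cons ?_ List.Pairwise.nil))))
    · intro a ha
      simp only [List.mem_cons, List.not_mem_nil, or_false] at ha
      rcases ha with rfl | rfl | rfl | rfl
      · exact pair_of _ _ _ _ perp_u1_u2 rank_u1_u2
      · exact pair_of _ _ _ _ perp_u1_u3 rank_u1_u3
      · exact pair_of _ _ _ _ perp_u1_u4 rank_u1_u4
      · exact pair_of _ _ _ _ perp_u1_u5 rank_u1_u5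
    · intro a ha
      simp only [List.mem_cons, List.not_mem_nil, or_false] at ha
      rcases ha with rfl | rfl | rfl
      · exact pair_of _ _ _ _ perp_u2_u3 rank_u2_u3
      · exact pair_of _ _ _ _ perp_u2_u4 rank_u2_u4
      · exact pair_of _ _ _ _ perp_u2_u5 rank_u2_u5
    · intro a ha
      simp only [List.mem_cons, List.not_mem_nil, or_false] at ha
      rcases ha with rfl | rfl
      · exact pair_of _ _ _ _ perp_u3_u4 rank_u3_u4
      · exact pair_of _ _ _ _ perp_u3_u5 rank_u3_u5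
    · intro a ha
      simp only [List.mem_cons, List.not_mem_nil, or_false] at ha
      rcases ha with rfl
      exact pair_of _ _ _ _ perp_u4_u5 rank_u4_u5
    · intro a ha
      simp at ha

/-- Goodness transports along conjugation. -/
theorem good_conj (E : CExt π d) {x x' : PS} (h : IsConj x x') (hg : ∃ y, π y = x ∧ y * y = 1) :
    ∃ y, π y = x' ∧ y * y = 1 := by
  obtain ⟨g, rfl⟩ := isConj_iff.1 h
  obtain ⟨y, rfl, hy⟩ := hg
  obtain ⟨g', rfl⟩ := E.surj g
  refine ⟨g' * y * g'⁻¹, by simp only [map_mul, map_inv], ?_⟩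
  calc g' * y * g'⁻¹ * (g' * y * g'⁻¹) = g' * (y * y) * g'⁻¹ := by group
    _ = 1 := by rw [hy]; group

/-- **Every involution lifts to an involution.** -/
theorem lift_PS (E : CExt π d) (x : PS) (hx : x * x = 1) : ∃ y, π y = x ∧ y * y = 1 := by
  by_cases hx1 : x = 1
  · exact ⟨1, by rw [map_one, hx1], by simp⟩
  obtain ⟨s, rfl, hs, hs1⟩ := lift_invol hx1 hx
  obtain ⟨hz, ht⟩ := main_U E
  have hle := rank_le_three hs
  have hcases : (mat s - 1).rank = 0 ∨ (mat s - 1).rank = 1 ∨ (mat s - 1).rank = 2 ∨ (mat s - 1).rank = 3 := by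
    omega
  rcases hcases with h0 | h1 | h2 | h3
  · exfalso
    apply hs1
    apply mat_inj
    have h4 : mat s - 1 = 0 := by
      have h5 : LinearMap.range (mat s - 1).mulVecLin = ⊥ := Submodule.finrank_eq_zero.1 h0
      have h6 : (mat s - 1).mulVecLin = 0 := LinearMap.range_eq_bot.1 h5
      apply Matrix.ext_of_mulVec_single
      intro j
      have h7 : (mat s - 1) *ᵥ Pi.single j 1 = 0 := LinearMap.congr_fun h6 (Pi.single j 1)
      rw [h7, Matrix.zero_mulVec]
    exact sub_eq_zero.1 h4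
  · have hc := MonoidHom.map_isConj mkS (Cfsg.Agent.Lib.Classical.Herm.InvolChar2.isConj_of_rank_eq hF4 (tauS_sq u1 iso_u1) hs
      (tau_ne _ _ rank_u1) (by rw [rank_u1, h1]))
    obtain ⟨y, hy⟩ := E.surj t0
    exact good_conj E hc ⟨y, hy, ht y hy⟩
  · have hc := MonoidHom.map_isConj mkS (Cfsg.Agent.Lib.Classical.Herm.InvolChar2.isConj_of_rank_eq hF4 t2_sq hs t2_ne
      (by rw [rank_t2, h2]))
    obtain ⟨y, hy⟩ := E.surj z0
    exact good_conj E hc ⟨y, hy, hz y hy⟩
  · have ht3 : t3 ≠ 1 := by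
      intro h
      have h1 := rank_t3
      rw [h] at h1
      have h2 : mat (1 : S) - 1 = 0 := by
        rw [sub_eq_zero]
        rfl
      rw [h2, Matrix.rank_zero] at h1
      omega
    have hc := MonoidHom.map_isConj mkS (Cfsg.Agent.Lib.Classical.Herm.InvolChar2.isConj_of_rank_eq hF4 t3_sq hs ht3
      (by rw [rank_t3, h3]))
    refine good_conj E hc ?_
    obtain ⟨a, ha⟩ := E.surj (tt u1 iso_u1)
    obtain ⟨b, hb⟩ := E.surj (tt u2 iso_u2)
    obtain ⟨c, hc'⟩ := E.surj (tt w0 iso_w0)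
    have ht1 : t0 * t0 = 1 := tt_sq _ _
    have hz1 : z0 * z0 = 1 := by rw [z0, ← map_mul, t2_sq, map_one]
    have hab := lifts_commute E ht1 hz1 hz ht (conj_t0 _ _ rank_u1) (conj_t0 _ _ rank_u2)
      (pair_of _ _ _ _ perp_u1_u2 rank_u1_u2).1 (pair_of _ _ _ _ perp_u1_u2 rank_u1_u2).2 ha hb
    have hca := lifts_commute E ht1 hz1 hz ht (conj_t0 _ _ rank_w0) (conj_t0 _ _ rank_u1)
      (pair_of _ _ _ _ perp_w0_u1 rank_w0_u1).1 (pair_of _ _ _ _ perp_w0_u1 rank_w0_u1).2 hc' ha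
    have hcb := lifts_commute E ht1 hz1 hz ht (conj_t0 _ _ rank_w0) (conj_t0 _ _ rank_u2)
      (pair_of _ _ _ _ perp_w0_u2 rank_w0_u2).1 (pair_of _ _ _ _ perp_w0_u2 rank_w0_u2).2 hc' hb
    have sa : a * a = 1 := by
      have h1 : a * a = 1 := by
        have h2 := E.sq_conj (a := a) (b := a) (by rw [ha]; exact tt_sq _ _) (IsConj.refl _)
        exact ht a ha
      exact h1
    have sb : b * b = 1 := by
      obtain ⟨t', ht'⟩ := E.surj t0
      rw [← E.sq_conj (a := t') (b := b) (by rw [ht']; exact ht1) (by rw [ht', hb]; exact conj_t0 _ _ rank_u2)]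
      exact ht t' ht'
    have sc : c * c = 1 := by
      obtain ⟨t', ht'⟩ := E.surj t0
      rw [← E.sq_conj (a := t') (b := c) (by rw [ht']; exact ht1) (by rw [ht', hc']; exact conj_t0 _ _ rank_w0)]
      exact ht t' ht'
    refine ⟨a * b * c, ?_, ?_⟩
    · rw [map_mul, map_mul, ha, hb, hc']
      show _ = mkS (tauS y1 iso_y1 * tauS y2 iso_y2 * tauS y3 iso_y3)
      rw [map_mul, map_mul]
    · calc a * b * c * (a * b * c) = a * b * (c * a) * b * c := by group
        _ = a * b * (a * c) * b * c := by rw [hca]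
        _ = a * (b * a) * (c * b) * c := by group
        _ = a * (a * b) * (b * c) * c := by rw [← hab, hcb]
        _ = (a * a) * (b * b) * (c * c) := by group
        _ = 1 := by rw [sa, sb, sc, one_mul, one_mul]

end Cfsg.Agent.Lib.Fischer.M22.LiftU62
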